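import Cfsg.Agent.Lib.Helper3.Stcs6

set_option autoImplicit false
set_option maxRecDepth 100000

namespace Cfsg.Agent.Lib.Helper3.A8r

open Cfsg.Agent.Lib.Helper11 Cfsg.Agent.Lib.Helper3

set_option maxHeartbeats 0

noncomputable def ntl : List (List (ℕ × ℕ)) := [[], [(0xc, 4), (0x30, 2), (0x14, 1), (0x0, 2), (0x0, 4)], [(0x8, 4), (0x1, 2), (0x41, 1), (0x22, 2), (0xa, 4)], [(0x0, 4), (0x30, 2), (0x44, 1), (0x0, 2), (0xc, 4)], [(0xa, 4), (0x21, 2), (0x44, 1), (0x2, 2), (0x8, 4)], [(0x5, 4), (0x20, 2), (0x51, 1), (0x2, 2), (0x4, 4)], [(0xb, 4), (0x21, 2), (0x15, 1), (0x0, 2), (0xa, 4)], [(0x3, 4), (0x21, 2), (0x41, 1), (0x0, 2), (0xc, 4)], [(0x9, 4), (0x12, 2), (0x44, 1), (0x22, 2), (0x0, 4)], [(0x9, 4), (0x12, 2), (0x11, 1), (0x22, 2), (0x0, 4)], [(0xc, 4), (0x21, 2), (0x14, 1), (0x0, 2), (0xc, 4)], [(0x0, 4), (0x32, 2), (0x15, 1), (0x0, 2), (0x0, 4)], [(0x0, 4), (0x31, 2),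 (0x45, 1), (0x0, 2), (0x0, 4)], [(0xf, 4), (0x22, 2), (0x11, 1), (0x22, 2), (0x0, 4)], [(0x4, 4), (0x3, 2), (0x50, 1), (0x0, 2), (0x4, 4)], [(0xb, 4), (0x11, 2), (0x41, 1), (0x22, 2), (0x4, 4)]]
noncomputable def INV : ℕ := 583705000955352449060960
abbrev deg : ℕ := 8

theorem setup : NetSetup ntl deg 3 INV 15 where
  hok := by decide +kernel
  hstab := by decide +kernel
  hlen := by decide +kernel
  h0 := by decide +kernel
  hINV := by decide +kernel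
  hINV0 := by decide +kernel
  htriv := by decide +kernel

end Cfsg.Agent.Lib.Helper3.A8r
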